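import Mathlib
import Cfsg.Agent.Lib.H53.Zsig

/-! Lower bounds for cyclotomic values and the primitive part of `q^n-1`. -/

set_option autoImplicit false
set_option linter.unusedSectionVars false

namespace H76.CycBound

open H53.Zsig Polynomial

/-- `m^3 ≤ φ(m)^4` for `m` prime to 6 -/
theorem six_le (n : ℕ) (hn2 : ¬ 2 ∣ n) (hn3 : ¬ 3 ∣ n) : n ^ 3 ≤ n.totient ^ 4 := by
  induction n using Nat.recOnPosPrimePosCoprime with
  | prime_pow p k hp hk =>
    have hp2 : p ≠ 2 := by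
      rintro rfl
      exact hn2 (dvd_pow_self 2 hk.ne')
    have hp3 : p ≠ 3 := by
      rintro rfl
      exact hn3 (dvd_pow_self 3 hk.ne')
    have hp4 : p ≠ 4 := by
      rintro rfl
      revert hp; decide
    have hp5 : 5 ≤ p := by have := hp.two_le; omega
    rw [Nat.totient_prime_pow hp hk]
    obtain ⟨j, rfl⟩ : ∃ j, k = j + 1 := ⟨k - 1, by omega⟩
    obtain ⟨t, rfl⟩ : ∃ t, p = t + 5 := ⟨p - 5, by omega⟩
    have h1 : t + 5 - 1 = t + 4 := by omega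
    rw [Nat.add_sub_cancel, h1, mul_pow, pow_succ (t + 5) j, mul_pow]
    have h2 : ((t + 5) ^ j) ^ 3 ≤ ((t + 5) ^ j) ^ 4 :=
      Nat.pow_le_pow_right (Nat.pos_of_ne_zero (by positivity)) (by norm_num)
    have h3 : (t + 5) ^ 3 ≤ (t + 4) ^ 4 := by
      ring_nf
      nlinarith [Nat.zero_le t, Nat.zero_le (t^2), Nat.zero_le (t^3), Nat.zero_le (t^4)]
    exact Nat.mul_le_mul h2 h3
  | zero => exact absurd (dvd_zero 2) hn2
  | one => simp
  | coprime a b ha hb hab iha ihb =>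
    rw [Nat.totient_mul hab, mul_pow, mul_pow]
    exact Nat.mul_le_mul
      (iha (fun h => hn2 (h.mul_right b)) (fun h => hn3 (h.mul_right b)))
      (ihb (fun h => hn2 (h.mul_left a)) (fun h => hn3 (h.mul_left a)))

theorem two_pow_le (a : ℕ) : (2 ^ a) ^ 3 ≤ 8 * (Nat.totient (2 ^ a)) ^ 4 := by
  rcases Nat.eq_zero_or_pos a with rfl | h0
  · simp
  · rw [Nat.totient_prime_pow Nat.prime_two h0]
    obtain ⟨j, rfl⟩ : ∃ j, a = j + 1 := ⟨a - 1, by omega⟩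
    rw [Nat.add_sub_cancel, show 2 - 1 = 1 from rfl, mul_one, pow_succ]
    have h2 : (2 ^ j) ^ 3 ≤ (2 ^ j) ^ 4 :=
      Nat.pow_le_pow_right (Nat.pos_of_ne_zero (by positivity)) (by norm_num)
    calc (2 ^ j * 2) ^ 3 = 8 * (2 ^ j) ^ 3 := by ring
      _ ≤ 8 * (2 ^ j) ^ 4 := Nat.mul_le_mul_left 8 h2

theorem three_pow_le (a : ℕ) : 16 * (3 ^ a) ^ 3 ≤ 27 * (Nat.totient (3 ^ a)) ^ 4 := by
  rcases Nat.eq_zero_or_pos a with rfl | h0
  · simp
  · rw [Nat.totient_prime_pow Nat.prime_three h0]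
    obtain ⟨j, rfl⟩ : ∃ j, a = j + 1 := ⟨a - 1, by omega⟩
    rw [Nat.add_sub_cancel, show 3 - 1 = 2 from rfl, pow_succ]
    have h2 : (3 ^ j) ^ 3 ≤ (3 ^ j) ^ 4 :=
      Nat.pow_le_pow_right (Nat.pos_of_ne_zero (by positivity)) (by norm_num)
    calc 16 * (3 ^ j * 3) ^ 3 = 432 * (3 ^ j) ^ 3 := by ring
      _ ≤ 432 * (3 ^ j) ^ 4 := Nat.mul_le_mul_left 432 h2
      _ = 27 * (3 ^ j * 2) ^ 4 := by ring

theorem totient_bound (n : ℕ) (hn : 0 < n) : 2 * n ^ 3 ≤ 27 * n.totient ^ 4 := by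
  obtain ⟨a, m, hm, ham⟩ := Nat.exists_eq_pow_mul_and_not_dvd hn.ne' 2 (by norm_num)
  have hm0 : m ≠ 0 := by
    rintro rfl
    exact hm (dvd_zero 2)
  obtain ⟨b, l, hl, hbl⟩ := Nat.exists_eq_pow_mul_and_not_dvd hm0 3 (by norm_num)
  have hl2 : ¬ 2 ∣ l := fun h => hm (by rw [hbl]; exact h.mul_left _)
  have c1 : Nat.Coprime (2 ^ a) m :=
    Nat.Coprime.pow_left a ((Nat.Prime.coprime_iff_not_dvd Nat.prime_two).2 hm)
  have c2 : Nat.Coprime (3 ^ b) l :=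
    Nat.Coprime.pow_left b ((Nat.Prime.coprime_iff_not_dvd Nat.prime_three).2 hl)
  have h1 := six_le l hl2 hl
  have h2 := two_pow_le a
  have h3 := three_pow_le b
  have e1 : n.totient = Nat.totient (2 ^ a) * (Nat.totient (3 ^ b) * Nat.totient l) := by
    rw [ham, Nat.totient_mul c1, hbl, Nat.totient_mul c2]
  have e2 : 16 * n ^ 3 = (2 ^ a) ^ 3 * (16 * (3 ^ b) ^ 3 * l ^ 3) := by
    rw [ham, hbl]; ring
  have h4 : 16 * n ^ 3 ≤ 8 * (Nat.totient (2 ^ a)) ^ 4 * (27 * (Nat.totient (3 ^ b)) ^ 4 * l.totient ^ 4) := by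
    rw [e2]
    exact Nat.mul_le_mul h2 (Nat.mul_le_mul h3 h1)
  have e3 : 8 * (Nat.totient (2 ^ a)) ^ 4 * (27 * (Nat.totient (3 ^ b)) ^ 4 * l.totient ^ 4) =
      8 * (27 * n.totient ^ 4) := by
    rw [e1]; ring
  omega

theorem prod_two (n : ℕ) (hn : 1 ≤ n) :
    (1 / 4 + 1 / 2 ^ (n + 1) : ℚ) ≤ ∏ j ∈ Finset.Icc 1 n, (1 - 1 / 2 ^ j : ℚ) := by
  induction n, hn using Nat.le_induction with
  | base => norm_num
  | succ n hn ih =>
    rw [Finset.prod_Icc_succ_top (by omega)]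
    have h0 : (0 : ℚ) < 1 / 2 ^ (n + 1) := by positivity
    have h1 : (1 : ℚ) / 2 ^ (n + 1) ≤ 1 / 4 := by
      apply one_div_le_one_div_of_le (by norm_num)
      calc (4 : ℚ) = 2 ^ 2 := by norm_num
        _ ≤ 2 ^ (n + 1) := pow_le_pow_right₀ (by norm_num) (by omega)
    have h2 : (1 : ℚ) / 2 ^ (n + 1 + 1) = (1 / 2 ^ (n + 1)) / 2 := by
      rw [pow_succ 2 (n + 1)]; field_simp
    set x : ℚ := 1 / 2 ^ (n + 1) with hx
    rw [h2]
    calc (1 / 4 + x / 2 : ℚ) ≤ (1 / 4 + x) * (1 - x) := by nlinarith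
      _ ≤ _ := mul_le_mul_of_nonneg_right ih (by linarith)

theorem prod_q (q n : ℕ) (hq : 2 ≤ q) (hn : 1 ≤ n) :
    (1 / 4 : ℚ) ≤ ∏ j ∈ Finset.Icc 1 n, (1 - 1 / (q : ℚ) ^ j) := by
  have h1 := prod_two n hn
  have h2 : (0 : ℚ) < 1 / 2 ^ (n + 1) := by positivity
  have h3 : ∏ j ∈ Finset.Icc 1 n, (1 - 1 / 2 ^ j : ℚ) ≤
      ∏ j ∈ Finset.Icc 1 n, (1 - 1 / (q : ℚ) ^ j) := by
    apply Finset.prod_le_prod
    · intro j _
      have : (1 : ℚ) / 2 ^ j ≤ 1 := by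
        rw [div_le_one (by positivity)]
        exact one_le_pow₀ (by norm_num)
      linarith
    · intro j _
      have hq' : (2 : ℚ) ≤ q := by exact_mod_cast hq
      have : (1 : ℚ) / (q : ℚ) ^ j ≤ 1 / 2 ^ j :=
        one_div_le_one_div_of_le (by positivity) (pow_le_pow_left₀ (by norm_num) hq' j)
      linarith
  linarith

theorem prod_Phi (q n : ℕ) (hq : 2 ≤ q) (hn : 0 < n) :
    ∏ d ∈ n.divisors, (Phi d q : ℚ) = (q : ℚ) ^ n - 1 := by
  have h := congrArg (Polynomial.eval (q : ℚ)) (Polynomial.prod_cyclotomic_eq_X_pow_sub_one hn ℚ)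
  rw [Polynomial.eval_prod] at h
  simp only [Polynomial.eval_sub, Polynomial.eval_pow, Polynomial.eval_X, Polynomial.eval_one] at h
  rw [← h]
  refine Finset.prod_congr rfl fun d _ => ?_
  exact Phi_cast (by omega) ℚ

/-- **lower bound for cyclotomic values** -/
theorem le_Phi (q n : ℕ) (hq : 2 ≤ q) (hn : 0 < n) : q ^ n.totient ≤ 4 * Phi n q := by
  have hq0 : (0 : ℚ) < q := by exact_mod_cast (by omega : 0 < q)
  have hq1 : (1 : ℚ) < q := by exact_mod_cast (by omega : 1 < q)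
  let f : ℕ → ℚ := fun d => (Phi d q : ℚ) / (q : ℚ) ^ d.totient
  let g : ℕ → ℚ := fun d => 1 - 1 / (q : ℚ) ^ d
  have hf : ∀ d : ℕ, 0 < d → f d ≠ 0 := by
    intro d _
    have : (0 : ℚ) < Phi d q := by exact_mod_cast Phi_pos (by omega)
    exact (div_pos this (by positivity)).ne'
  have hg0 : ∀ d : ℕ, 0 < d → 0 < g d := by
    intro d hd
    have : (1 : ℚ) / (q : ℚ) ^ d < 1 := by
      rw [div_lt_one (by positivity)]
      exact one_lt_pow₀ hq1 hd.ne'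
    show 0 < 1 - 1 / (q : ℚ) ^ d
    linarith
  have hg1 : ∀ d : ℕ, g d ≤ 1 := by
    intro d
    have : (0 : ℚ) < 1 / (q : ℚ) ^ d := by positivity
    show 1 - 1 / (q : ℚ) ^ d ≤ 1
    linarith
  have hg : ∀ d : ℕ, 0 < d → g d ≠ 0 := fun d hd => (hg0 d hd).ne'
  have hfg : ∀ m > 0, ∏ d ∈ m.divisors, f d = g m := by
    intro m hm
    show ∏ d ∈ m.divisors, (Phi d q : ℚ) / (q : ℚ) ^ d.totient = 1 - 1 / (q : ℚ) ^ m
    rw [Finset.prod_div_distrib, prod_Phi q m hq hm, Finset.prod_pow_eq_pow_sum, Nat.sum_totient]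
    field_simp
  have key := (ArithmeticFunction.prod_eq_iff_prod_pow_moebius_eq_of_nonzero hf hg).1 hfg n hn
  have h1 : ∏ x ∈ n.divisorsAntidiagonal, g x.2 ≤
      ∏ x ∈ n.divisorsAntidiagonal, g x.2 ^ (ArithmeticFunction.moebius x.1 : ℤ) := by
    apply Finset.prod_le_prod
    · intro x hx
      exact (hg0 _ (Nat.pos_of_mem_divisors (Nat.snd_mem_divisors_of_mem_antidiagonal hx))).le
    · intro x hx
      have hx0 := hg0 _ (Nat.pos_of_mem_divisors (Nat.snd_mem_divisors_of_mem_antidiagonal hx))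
      have hx1 := hg1 x.2
      have hmu : ArithmeticFunction.moebius x.1 = 1 ∨ ArithmeticFunction.moebius x.1 = 0 ∨
          ArithmeticFunction.moebius x.1 = -1 := by
        rcases eq_or_ne (ArithmeticFunction.moebius x.1) 0 with h | h
        · exact Or.inr (Or.inl h)
        · rcases ArithmeticFunction.moebius_ne_zero_iff_eq_or.1 h with h | h
          · exact Or.inl h
          · exact Or.inr (Or.inr h)
      rcases hmu with h | h | h <;> rw [h]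
      · rw [zpow_one]
      · rw [zpow_zero]; exact hx1
      · rw [zpow_neg_one]
        exact hx1.trans ((one_le_inv₀ hx0).2 hx1)
  have h2 : ∏ x ∈ n.divisorsAntidiagonal, g x.2 = ∏ d ∈ n.divisors, g d := by
    rw [← Nat.map_div_left_divisors, Finset.prod_map]
    rfl
  have h3 : ∏ d ∈ Finset.Icc 1 n, g d ≤ ∏ d ∈ n.divisors, g d := by
    have hsub : n.divisors ⊆ Finset.Icc 1 n := by
      intro d hd
      rw [Finset.mem_Icc]
      exact ⟨Nat.pos_of_mem_divisors hd, Nat.divisor_le hd⟩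
    rw [← Finset.prod_sdiff hsub]
    have h4 : ∏ d ∈ Finset.Icc 1 n \ n.divisors, g d ≤ 1 := by
      apply Finset.prod_le_one
      · intro d hd
        rw [Finset.mem_sdiff, Finset.mem_Icc] at hd
        exact (hg0 d (by omega)).le
      · intro d _
        exact hg1 d
    have h5 : 0 ≤ ∏ d ∈ n.divisors, g d :=
      Finset.prod_nonneg fun d hd => (hg0 d (Nat.pos_of_mem_divisors hd)).le
    exact mul_le_of_le_one_left h5 h4
  have h4 : (1 / 4 : ℚ) ≤ f n := by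
    rw [← key]
    exact ((prod_q q n hq hn).trans h3).trans (h2.symm.le.trans h1)
  have h5 : (1 / 4 : ℚ) ≤ (Phi n q : ℚ) / (q : ℚ) ^ n.totient := h4
  rw [div_le_div_iff₀ (by norm_num) (by positivity)] at h5
  have h6 : ((q ^ n.totient : ℕ) : ℚ) ≤ ((4 * Phi n q : ℕ) : ℚ) := by
    push_cast
    linarith
  exact_mod_cast h6

/-- the primitive part -/
theorem exists_primitive (q n : ℕ) (hq : 2 ≤ q) (hn : 3 ≤ n) :
    ∃ m : ℕ, m ∣ q ^ n - 1 ∧ (∀ i : ℕ, 1 ≤ i → i < n → Nat.Coprime m (q ^ i - 1)) ∧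
      Phi n q ≤ n * m := by
  obtain ⟨m, hm⟩ := Nat.gcd_dvd_left (Phi n q) n
  have hP := Phi_pos (n := n) (show 1 < q by omega)
  have hg : Nat.gcd (Phi n q) n ≤ n := Nat.le_of_dvd (by omega) (Nat.gcd_dvd_right _ _)
  have hmP : m ∣ Phi n q := ⟨Nat.gcd (Phi n q) n, by rw [mul_comm]; exact hm⟩
  refine ⟨m, hmP.trans (Phi_dvd (by omega) (by omega)), ?_, ?_⟩
  · intro i hi hin
    apply Nat.Coprime.symm
    rw [Nat.coprime_iff_gcd_eq_one] 
    by_contra hne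
    obtain ⟨r, hr, hrd⟩ := Nat.exists_prime_and_dvd hne
    have h1 : r ∣ q ^ i - 1 := hrd.trans (Nat.gcd_dvd_left _ _)
    have h2 : r ∣ m := hrd.trans (Nat.gcd_dvd_right _ _)
    have h3 : ¬ IsZsig r q n := fun h => h.2.2 i hi hin h1
    rcases isZsig_or (by omega) (by omega) hr (h2.trans hmP) with h4 | ⟨k, m', hk, hnm, -⟩
    · exact h3 h4
    · apply sq_not_dvd (by omega) (by omega) hr (h2.trans hmP) h3
      rw [hm, pow_two]
      apply Nat.mul_dvd_mul _ h2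
      apply Nat.dvd_gcd (h2.trans hmP)
      rw [hnm]
      exact Dvd.dvd.mul_right (dvd_pow_self r hk.ne') m'
  · calc Phi n q = Nat.gcd (Phi n q) n * m := hm
      _ ≤ n * m := Nat.mul_le_mul_right m hg

/-- the small pairs with their primitive parts -/
def goodList : List (ℕ × ℕ × ℕ) := [(3, 3, 13), (5, 3, 31), (6, 3, 43), (7, 3, 19), (8, 3, 73), (9, 3, 91), (10, 3, 37), (4, 4, 17), (5, 4, 13), (6, 4, 37), (7, 4, 25), (8, 4, 65), (9, 4, 41), (10, 4, 101), (11, 4, 61), (12, 4, 145), (13, 4, 85), (2, 5, 31), (3, 5, 121), (4, 5, 341), (6, 6, 31), (7, 6, 43), (8, 6, 19), (9, 6, 73), (10, 6, 91), (11, 6, 37), (12, 6, 133), (13, 6, 157), (14, 6, 61), (15, 6, 211), (16, 6, 241), (17, 6, 91), (18, 6, 307), (19, 6, 343), (20, 6, 127), (2, 7, 127), (3, 8, 41), (4, 8, 257), (5, 8, 313), (2, 9, 73), (3, 9, 757), (3, 10, 61), (4, 10, 41), (5, 10, 521), (2, 11, 2047), (3, 12, 73), (4, 12, 241), (5, 12, 601),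 (6, 12, 1261), (2, 14, 43), (3, 14, 547), (2, 15, 151), (2, 16, 257), (3, 18, 703), (2, 21, 337), (2, 22, 683), (2, 24, 241), (3, 24, 6481), (2, 26, 2731), (2, 28, 3277), (2, 30, 331), (3, 30, 8401), (2, 36, 4033), (2, 42, 5419)]

def excList : List (ℕ × ℕ) := [(2, 6), (2, 4), (2, 10), (2, 12), (2, 18), (3, 4), (3, 6), (5, 6), (2, 3), (2, 8), (2, 20), (4, 3), (4, 6)]

theorem good_check : ∀ t ∈ goodList, t.2.2 ∣ t.1 ^ t.2.1 - 1 ∧
    (∀ i ∈ List.range t.2.1, 1 ≤ i → Nat.gcd t.2.2 (t.1 ^ i - 1) = 1) ∧ 3 * t.2.1 + 1 ≤ t.2.2 := by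
  decide +kernel

theorem n_bound : ∀ n ∈ List.range 97, 43 ≤ n → 12 * n ^ 2 < 2 ^ Nat.totient n := by
  decide +kernel

theorem small_check : ∀ n ∈ List.range 43, 3 ≤ n → ∀ q ∈ List.range 146, 2 ≤ q →
    q ^ Nat.totient n ≤ 12 * n ^ 2 → (q, n) ∈ excList ∨ (q, n) ∈ goodList.map (fun t => (t.1, t.2.1)) := by
  decide +kernel

theorem pow_bound (f : ℕ) (hf : 17 ≤ f) : 314928 * f ^ 8 < 8 ^ f := by
  induction f, hf using Nat.le_induction with
  | base => norm_num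
  | succ f hf ih =>
    rw [pow_succ 8 f]
    have h1 : (f + 1) ^ 8 ≤ 8 * f ^ 8 := by
      have h2 : 17 * (f + 1) ≤ 18 * f := by omega
      have h3 := Nat.pow_le_pow_left h2 8
      rw [mul_pow, mul_pow] at h3
      have h4 : (18 : ℕ) ^ 8 ≤ 8 * 17 ^ 8 := by norm_num
      have h5 : 18 ^ 8 * f ^ 8 ≤ 8 * 17 ^ 8 * f ^ 8 := Nat.mul_le_mul_right _ h4
      have h6 : (0 : ℕ) < 17 ^ 8 := by norm_num
      have h7 : 17 ^ 8 * (f + 1) ^ 8 ≤ 17 ^ 8 * (8 * f ^ 8) := by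
        calc 17 ^ 8 * (f + 1) ^ 8 ≤ 18 ^ 8 * f ^ 8 := h3
          _ ≤ 8 * 17 ^ 8 * f ^ 8 := h5
          _ = 17 ^ 8 * (8 * f ^ 8) := by ring
      exact Nat.le_of_mul_le_mul_left h7 h6
    omega

theorem mem_lists (q n : ℕ) (hq : 2 ≤ q) (hn : 3 ≤ n) (h : q ^ Nat.totient n ≤ 12 * n ^ 2) :
    (q, n) ∈ excList ∨ (q, n) ∈ goodList.map (fun t => (t.1, t.2.1)) := by
  have h2 : 2 ^ Nat.totient n ≤ 12 * n ^ 2 := (Nat.pow_le_pow_left hq _).trans h
  have h3 := totient_bound n (by omega)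
  have h4 : Nat.totient n < 17 := by
    by_contra hge
    have h5 := pow_bound (Nat.totient n) (by omega)
    have h6 : (2 * n ^ 3) ^ 2 ≤ (27 * Nat.totient n ^ 4) ^ 2 := Nat.pow_le_pow_left h3 2
    have h7 : (2 ^ Nat.totient n) ^ 3 ≤ (12 * n ^ 2) ^ 3 := Nat.pow_le_pow_left h2 3
    have h8 : (2 ^ Nat.totient n) ^ 3 = 8 ^ Nat.totient n := by
      rw [← pow_mul, mul_comm, pow_mul]; norm_num
    have h9 : (12 * n ^ 2) ^ 3 = 432 * (2 * n ^ 3) ^ 2 := by ring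
    have h10 : 432 * (27 * Nat.totient n ^ 4) ^ 2 = 314928 * Nat.totient n ^ 8 := by ring
    omega
  have h5 : n < 97 := by
    by_contra hge
    have h6 : 97 ^ 3 ≤ n ^ 3 := Nat.pow_le_pow_left (by omega) 3
    have h7 : Nat.totient n ^ 4 ≤ 16 ^ 4 := Nat.pow_le_pow_left (by omega) 4
    omega
  have h6 : n < 43 := by
    by_contra hge
    have := n_bound n (List.mem_range.2 (by omega)) (by omega)
    omega
  have h7 : 2 ≤ Nat.totient n := by
    have h8 : Even (Nat.totient n) := Nat.totient_even (by omega)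
    have h9 : 0 < Nat.totient n := Nat.totient_pos.2 (by omega)
    obtain ⟨c, hc⟩ := h8
    omega
  have h8 : q ^ 2 ≤ q ^ Nat.totient n := Nat.pow_le_pow_right (by omega) h7
  have h9 : q < 146 := by
    by_contra hge
    have h10 : 146 ^ 2 ≤ q ^ 2 := Nat.pow_le_pow_left (by omega) 2
    have h11 : n ^ 2 ≤ 42 ^ 2 := Nat.pow_le_pow_left (by omega) 2
    omega
  exact small_check n (List.mem_range.2 h6) hn q (List.mem_range.2 h9) hq h

theorem part1 (q e : ℕ) (hq : 2 ≤ q) (he : 3 ≤ e) (hexc : (q, e) ∉ excList) :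
    ∃ m : ℕ, m ∣ q ^ e - 1 ∧ (∀ i : ℕ, 1 ≤ i → i < e → Nat.Coprime m (q ^ i - 1)) ∧ 3 * e + 1 ≤ m := by
  by_cases h : q ^ Nat.totient e ≤ 12 * e ^ 2
  · have h1 := (mem_lists q e hq he h).resolve_left hexc
    rw [List.mem_map] at h1
    obtain ⟨⟨q', e', m⟩, ht, heq⟩ := h1
    obtain ⟨g1, g2, g3⟩ := good_check _ ht
    simp only [Prod.mk.injEq] at heq
    obtain ⟨rfl, rfl⟩ := heq
    exact ⟨m, g1, fun i hi hi' => g2 i (List.mem_range.2 hi') hi, g3⟩
  · obtain ⟨m, h1, h2, h3⟩ := exists_primitive q e hq he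
    refine ⟨m, h1, h2, ?_⟩
    have h4 := le_Phi q e hq (by omega)
    by_contra hlt
    apply h
    calc q ^ Nat.totient e ≤ 4 * Phi e q := h4
      _ ≤ 4 * (e * m) := Nat.mul_le_mul_left 4 h3
      _ ≤ 4 * (e * (3 * e)) := Nat.mul_le_mul_left 4 (Nat.mul_le_mul_left e (by omega))
      _ = 12 * e ^ 2 := by ring

theorem exc_check : ∀ t ∈ excList, 0 < t.2 ∧ (t.1 ^ t.2 - 1) ∣
    ((List.range t.2).map (fun i => if i = 0 then 1 else t.1 ^ i - 1)).prod ^ 2 * (2 * t.2 + 1) ∨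
    (t.1 ^ t.2 - 1) ∣ ((List.range t.2).map (fun i => if i = 0 then 1 else t.1 ^ i - 1)).prod ^ 2 * (t.2 + 1) := by
  decide +kernel

theorem part2 (q e : ℕ) (hexc : (q, e) ∈ excList) (m : ℕ) (hm : m ∣ q ^ e - 1)
    (hc : ∀ i : ℕ, 1 ≤ i → i < e → Nat.Coprime m (q ^ i - 1)) : m ≤ 2 * e + 1 := by
  have hC : Nat.Coprime m (((List.range e).map (fun i => if i = 0 then 1 else q ^ i - 1)).prod ^ 2) := by
    apply Nat.Coprime.pow_right
    apply Nat.coprime_list_prod_right_iff.2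
    intro x hx
    rw [List.mem_map] at hx
    obtain ⟨i, hi, rfl⟩ := hx
    rw [List.mem_range] at hi
    split_ifs with h
    · exact Nat.coprime_one_right m
    · exact hc i (by omega) hi
  rcases exc_check _ hexc with ⟨h0, h⟩ | h
  · exact Nat.le_of_dvd (by omega) (hC.dvd_of_dvd_mul_left (hm.trans h))
  · have := Nat.le_of_dvd (by omega) (hC.dvd_of_dvd_mul_left (hm.trans h))
    simp only at this
    omega

end H76.CycBound
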