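import Mathlib
import Cfsg.Prelude.Def_Blocks
import Cfsg.Agent.Lib.H76.BlkInt

/-! Height-zero functional and induced blocks. -/

set_option autoImplicit false
set_option linter.unusedSectionVars false
set_option linter.style.haveILetI false
open Cfsg

namespace H76.BlkInd

open H20.Loc H20.GA H20.Blk H20.Orth H20.Defect H20.Height H20.Ind
open H18.CharBasic H18.CharOrtho
open scoped ComplexConjugate

universe u

variable {G : Type u} [Group G] [Finite G] {p : ℕ} {M : Ideal AlgInt}

theorem res_class (H : Subgroup G) {θ : G → ℂ} (hθ : IsClassFunction G θ) :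
    IsClassFunction H (fun h : H => θ (h : G)) := by
  intro x y
  have := hθ (x : G) (y : G)
  simpa using this

theorem resZ_zreg (H : Subgroup G) {θ : G → ℂ} (hθ : IsClassFunction G θ) :
    resZ H (zreg p θ hθ) = zreg p (fun h : H => θ (h : G)) (res_class H hθ) := by
  apply zG_ext
  intro h
  rw [zc_resZ]
  by_cases hh : p ∣ orderOf h
  · rw [zc_zreg_not _ hh, zc_zreg_not _ (by rwa [Subgroup.orderOf_coe])]
  · rw [zc_zreg_of _ hh, zc_zreg_of _ (by rwa [Subgroup.orderOf_coe])]

theorem Q_res (hM : IsPModular p M) {H : Subgroup G} {b : Set (IrrCharacter H)}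
    {B : Set (IrrCharacter G)} (hind : IsInducedBlock M H b B) {ψ : IrrCharacter H} (hψ : ψ ∈ b)
    {ξ : IrrCharacter G} (hξ : ξ ∈ B) (χ : IrrCharacter G) :
    MemLocalIdeal M (Q p ψ (fun h : H => (χ : G → ℂ) (h : G)) (res_class H (irr_class χ)) -
      Q p ξ (χ : G → ℂ) (irr_class χ)) := by
  haveI := pm_isPrime hM
  have h1 := isInducedBlock_omega hind hψ hξ (zreg_mem (p := p) (irr_class χ) (irr_int χ))
  rw [resZ_zreg] at h1
  exact h1

theorem Q_res_mem (hM : IsPModular p M) {H : Subgroup G} {b : Set (IrrCharacter H)}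
    {B : Set (IrrCharacter G)} (hind : IsInducedBlock M H b B) {ψ : IrrCharacter H} (hψ : ψ ∈ b)
    {χ : IrrCharacter G} (hχ : χ ∉ B) :
    MemLocalIdeal M (Q p ψ (fun h : H => (χ : G → ℂ) (h : G)) (res_class H (irr_class χ))) := by
  haveI := pm_isPrime hM
  obtain ⟨ξ, hξ⟩ := isPBlock_nonempty hind.2.1
  have h1 := Q_res hM hind hψ hξ χ
  rw [Q_eq_zero hM (fun h => hχ ((isPBlock_mem_iff hind.2.1 hξ χ).2 h)), sub_zero] at h1
  exact h1

theorem Q_res_unit (hM : IsPModular p M) {H : Subgroup G} {b : Set (IrrCharacter H)}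
    {B : Set (IrrCharacter G)} (hind : IsInducedBlock M H b B) {ψ : IrrCharacter H} (hψ : ψ ∈ b)
    {χ : IrrCharacter G} (hχ : χ ∈ B) (h0 : blockHeight p B (χ : G → ℂ) = 0) :
    ¬ MemLocalIdeal M (Q p ψ (fun h : H => (χ : G → ℂ) (h : G)) (res_class H (irr_class χ))) := by
  haveI := pm_isPrime hM
  intro h
  have h1 := Q_res hM hind hψ hχ χ
  exact Q_unit_of_height_zero hM hind.2.1 hχ hχ h0 ((locI_congr h1).1 h)

/-- `p^a/|G|` is a local unit. -/
theorem ratio_unit (hM : IsPModular p M) (H : Type u) [Group H] [Finite H] :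
    MemLocalRing M ((p : ℂ) ^ (Nat.card H).factorization p / (Nat.card H : ℂ)) ∧
      ¬ MemLocalIdeal M ((p : ℂ) ^ (Nat.card H).factorization p / (Nat.card H : ℂ)) := by
  haveI := pm_isPrime hM
  have hp := pm_prime hM
  have hp0 : (p : ℂ) ≠ 0 := by exact_mod_cast hp.ne_zero
  obtain ⟨c, hc, hcp⟩ := H78.BF.coprime_part hp (Nat.card_pos (α := H)).ne'
  have h1 : (p : ℂ) ^ (Nat.card H).factorization p / (Nat.card H : ℂ) = (c : ℂ)⁻¹ := by
    have hc0 : (c : ℂ) ≠ 0 := by
      intro h0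
      have : c = 0 := by exact_mod_cast h0
      exact hcp (this ▸ dvd_zero p)
    have h2 : (Nat.card H : ℂ) = (p : ℂ) ^ (Nat.card H).factorization p * c := by
      exact_mod_cast congrArg (Nat.cast (R := ℂ)) hc
    conv_lhs => rw [h2]
    field_simp
  rw [h1]
  refine ⟨locR_natCast_inv hM hcp, not_locI_inv (locR_natCast c) ?_⟩
  rw [locI_natCast_iff hM]
  exact hcp

theorem inner_eta [Fintype G] (H : Subgroup G) [Fintype H] (χ : IrrCharacter G)
    (ψ : IrrCharacter H) :
    classInner (fun h : H => if p ∣ orderOf h then (0 : ℂ) else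
      ((p ^ (Nat.card H).factorization p : ℕ) : ℂ) * (χ : G → ℂ) h) (ψ : H → ℂ) / (ψ : H → ℂ) 1 =
      (p : ℂ) ^ (Nat.card H).factorization p / (Nat.card H : ℂ) *
        Q p ψ (fun h : H => (χ : G → ℂ) (h : G)) (res_class H (irr_class χ)) := by
  have hH : (Nat.card H : ℂ) ≠ 0 := by exact_mod_cast (Nat.card_pos (α := H)).ne'
  have h1 := irr_one_ne_zero ψ.2
  rw [Q_eq, inner_reg_symm (irr_char ψ) (isCharacter_restrict H (irr_char χ)),
    H76.BlkInt.ite_eq_smul_reg (p := p) _ (fun h : H => (χ : G → ℂ) (h : G)),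
    H18.CharOrtho.inner_smul_left]
  push_cast
  field_simp

/-- valuation from membership in the local ideal -/
theorem lt_of_locI (hM : IsPModular p M) {n d : ℕ} (hd : d ≠ 0)
    (h : MemLocalIdeal M ((n : ℂ) / (d : ℂ))) (hn : n ≠ 0) :
    d.factorization p < n.factorization p := by
  haveI := pm_isPrime hM
  have hp := pm_prime hM
  have hp0 : (p : ℂ) ≠ 0 := by exact_mod_cast hp.ne_zero
  obtain ⟨c, hc, hcp⟩ := H78.BF.coprime_part hp hd
  set k := d.factorization p with hk
  have hc0 : (c : ℂ) ≠ 0 := by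
    intro h0
    have : c = 0 := by exact_mod_cast h0
    exact hcp (this ▸ dvd_zero p)
  have h2 : (d : ℂ) = (p : ℂ) ^ k * c := by
    exact_mod_cast congrArg (Nat.cast (R := ℂ)) hc
  have h1 : MemLocalIdeal M (((n : ℤ) : ℂ) / (p : ℂ) ^ k) := by
    have h3 : (((n : ℤ) : ℂ) / (p : ℂ) ^ k) = (n : ℂ) / (d : ℂ) * (c : ℂ) := by
      rw [h2]
      push_cast
      field_simp
    rw [h3]
    exact locI_mul_right h (locR_natCast c)
  have h4 := dvd_of_div_mem_ideal hM h1
  have h5 : p ^ (k + 1) ∣ n := by exact_mod_cast h4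
  have h6 := (hp.pow_dvd_iff_le_factorization hn).1 h5
  omega

theorem eq_of_unit (hM : IsPModular p M) {n d : ℕ} (hd : d ≠ 0)
    (h : MemLocalIdeal M ((n : ℂ) / (d : ℂ) - 1)) :
    n ≠ 0 ∧ n.factorization p = d.factorization p := by
  haveI := pm_isPrime hM
  have hd0 : (d : ℂ) ≠ 0 := by exact_mod_cast hd
  have h1 : ¬ MemLocalIdeal M ((n : ℂ) / (d : ℂ)) := fun h2 => not_locI_one ((locI_congr h).1 h2)
  have hR : MemLocalRing M ((n : ℂ) / (d : ℂ)) := by
    have := locR_add (locI_locR h) locR_one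
    simpa using this
  have hn : n ≠ 0 := by
    rintro rfl
    apply h1
    rw [Nat.cast_zero, zero_div]
    exact locI_zero
  have hn0 : (n : ℂ) ≠ 0 := by exact_mod_cast hn
  refine ⟨hn, le_antisymm ?_ ?_⟩
  · apply factorization_le_of_unit hM hn hd locR_one
    rwa [mul_one]
  · apply factorization_le_of_unit hM hd hn locR_one
    rw [mul_one, ← inv_div]
    exact not_locI_inv hR h1

theorem char_one_nat {χ : G → ℂ} (hχ : IsCharacter G χ) : (charDegree χ : ℂ) = χ 1 :=
  H78.Cong.charDegree_eq hχ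

/-- the value at `1` of the `S`-part of the induced character -/
theorem blockPart_one [Fintype G] (H : Subgroup G) [Fintype H] [Fintype (IrrCharacter G)]
    (S : Set (IrrCharacter G)) [DecidablePred (· ∈ S)] (ξ : IrrCharacter H) :
    blockPart S (indFun H (ξ : H → ℂ)) 1 =
      ∑ χ : IrrCharacter G, if χ ∈ S then (χ : G → ℂ) 1 *
        classInner (fun h : H => (χ : G → ℂ) h) (ξ : H → ℂ) else 0 := by
  rw [blockPart, H20.Orth.finsum_mem_eq_sum]
  refine Finset.sum_congr rfl fun χ _ => ?_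
  split_ifs
  · have h1 : classInner (indFun H (ξ : H → ℂ)) (χ : G → ℂ) =
        classInner (fun h : H => (χ : G → ℂ) h) (ξ : H → ℂ) := by
      rw [H18.CharInd.frobenius H _ (irr_class χ)]
      obtain ⟨n, hn⟩ := inner_char_natCast (isCharacter_restrict H (irr_char χ)) (irr_char ξ)
      rw [← H18.CharOrtho.inner_conj_symm, hn, Complex.conj_natCast]
    rw [← h1, mul_comm]
    congr 1
    · congr 1
      exact Subsingleton.elim _ _
  · rfl

theorem blockPart_nat [Fintype G] (H : Subgroup G) [Fintype H]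
    (S : Set (IrrCharacter G)) (ξ : IrrCharacter H) :
    ∃ n : ℕ, blockPart S (indFun H (ξ : H → ℂ)) 1 = (n : ℂ) := by
  classical
  letI := Fintype.ofFinite (IrrCharacter G)
  rw [blockPart_one]
  choose n hn using fun χ : IrrCharacter G =>
    inner_char_natCast (isCharacter_restrict H (irr_char χ)) (irr_char ξ)
  refine ⟨∑ χ : IrrCharacter G, if χ ∈ S then charDegree (χ : G → ℂ) * n χ else 0, ?_⟩
  push_cast
  refine Finset.sum_congr rfl fun χ _ => ?_
  split_ifs
  · rw [hn, charDegree_irr]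
  · rfl

theorem omega_ratio [Fintype G] (H : Subgroup G) [Fintype H]
    (S : Set (IrrCharacter G)) (ξ : IrrCharacter H) {n : ℕ}
    (hn : blockPart S (indFun H (ξ : H → ℂ)) 1 = (n : ℂ)) :
    omega ξ (resZ H (eB S)) = (n : ℂ) / (charDegree (indFun H (ξ : H → ℂ)) : ℂ) := by
  classical
  letI := Fintype.ofFinite (IrrCharacter G)
  have hG : (Nat.card G : ℂ) ≠ 0 := by exact_mod_cast (Nat.card_pos (α := G)).ne'
  have hH : (Nat.card H : ℂ) ≠ 0 := by exact_mod_cast (Nat.card_pos (α := H)).ne'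
  have hi : (H.index : ℂ) ≠ 0 := by exact_mod_cast Subgroup.index_ne_zero_of_finite
  have h1 := irr_one_ne_zero ξ.2
  have h2 : (Nat.card G : ℂ) = (Nat.card H : ℂ) * (H.index : ℂ) := by
    exact_mod_cast (congrArg (Nat.cast (R := ℂ)) H.card_mul_index).symm
  rw [omega_resZ_eB, ← blockPart_one, hn,
    char_one_nat (H18.CharInd.isCharacter_ind H (irr_char ξ)), H18.CharInd.indFun_one, h2]
  field_simp

end H76.BlkInd
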