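import Mathlib
import Cfsg.Prelude.Def_Blocks
import Cfsg.Agent.Lib.H76.BlkInd
import Cfsg.Agent.Lib.H78.Dade1

/-! A block covering `b` has characters over every character of `b`. -/

set_option autoImplicit false
set_option linter.unusedSectionVars false
set_option linter.style.haveILetI false
open Cfsg

namespace H76.BlkCov

open H20.Loc H20.GA H20.Blk H20.Orth H20.Defect H20.Height H20.Ind H78.Dade
open H18.CharBasic H18.CharOrtho
open scoped ComplexConjugate

universe u

section det
variable {G : Type u} [Group G] [Fintype G] {M : Ideal AlgInt} [M.IsPrime]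

theorem det_unit {n : Type*} [Fintype n] [DecidableEq n] (T : Matrix n n ℂ)
    (hT : ∀ i j, MemLocalIdeal M (T i j)) : (1 - T).det ≠ 0 := by
  have h1 : MemLocalIdeal M ((1 - T).det - (1 : Matrix n n ℂ).det) := by
    rw [Matrix.det_apply', Matrix.det_apply']
    refine locI_sum_congr fun σ _ => ?_
    rw [← mul_sub]
    refine locI_mul_left (locR_intCast _) (locI_prod_congr ?_ ?_ ?_)
    · intro i _
      rw [Matrix.sub_apply, Matrix.one_apply]
      refine locR_sub ?_ (locI_locR (hT _ _))
      split_ifs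
      · exact locR_one
      · exact locR_zero
    · intro i _
      rw [Matrix.one_apply]
      split_ifs
      · exact locR_one
      · exact locR_zero
    · intro i _
      rw [Matrix.sub_apply]
      have : (1 : Matrix n n ℂ) (σ i) i - T (σ i) i - (1 : Matrix n n ℂ) (σ i) i = -T (σ i) i := by
        ring
      rw [this]
      exact locI_neg (hT _ _)
  intro h0
  rw [h0, Matrix.det_one] at h1
  have := locI_neg h1
  apply not_locI_one (M := M)
  simpa using this

/-- coefficients in the local ideal -/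
def LocI (M : Ideal AlgInt) (a : MonoidAlgebra ℂ G) : Prop := ∀ g, MemLocalIdeal M (a.coeff g)

theorem eq_zero_of_eq_mul {a v : MonoidAlgebra ℂ G} (ha : LocI M a) (h : v = a * v) : v = 0 := by
  classical
  have h1 : (1 - Matrix.of (fun g k : G => a.coeff (g * k⁻¹))).mulVec (fun g => v.coeff g) = 0 := by
    rw [Matrix.sub_mulVec, Matrix.one_mulVec, sub_eq_zero]
    funext g
    conv_lhs => rw [h]
    rw [coeff_mul_eq, Matrix.mulVec, dotProduct,
      ← Equiv.sum_comp ((Equiv.inv G).trans (Equiv.mulLeft g))]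
    refine Finset.sum_congr rfl fun x _ => ?_
    have he : ((Equiv.inv G).trans (Equiv.mulLeft g)) x = g * x⁻¹ := rfl
    rw [he]
    simp
  have h2 := Matrix.eq_zero_of_mulVec_eq_zero
    (det_unit (M := M) (Matrix.of (fun g k : G => a.coeff (g * k⁻¹))) (fun i j => ha _)) h1
  apply MonoidAlgebra.ext
  ext g
  exact congrFun h2 g

end det

section up
variable {G : Type u} [Group G] [Fintype G] (N : Subgroup G) [hN : N.Normal] [Fintype N]

open Classical in
/-- coefficient function of a central element of the normal subgroup -/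
noncomputable def upf (z : ZG N) (g : G) : ℂ := if h : g ∈ N then zc z ⟨g, h⟩ else 0

theorem upf_mem (z : ZG N) (n : N) : upf N z n = zc z n := dif_pos n.2
theorem upf_not (z : ZG N) {g : G} (h : g ∉ N) : upf N z g = 0 := dif_neg h

/-- embedding of the centre of `ℂN` in `ℂG`. -/
noncomputable def up (z : ZG N) : MonoidAlgebra ℂ G := ga (upf N z)

theorem coeff_up (z : ZG N) (g : G) : (up N z).coeff g = upf N z g := rfl

theorem up_mul (z w : ZG N) : up N (z * w) = up N z * up N w := by
  apply MonoidAlgebra.ext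
  ext g
  rw [coeff_mul_eq]
  by_cases hg : g ∈ N
  · have h1 : (up N (z * w)).coeff g = zc (z * w) ⟨g, hg⟩ := upf_mem N (z * w) ⟨g, hg⟩
    rw [h1, zc_mul, sum_N N]
    · refine Finset.sum_congr rfl fun x _ => ?_
      rw [coeff_up, coeff_up, upf_mem]
      congr 1
      exact (upf_mem N w (x⁻¹ * ⟨g, hg⟩)).symm
    · intro x hx
      rw [coeff_up, upf_not N z hx, zero_mul]
  · rw [coeff_up, upf_not N _ hg]
    symm
    refine Finset.sum_eq_zero fun x _ => ?_
    rw [coeff_up, coeff_up]
    by_cases hx : x ∈ N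
    · rw [upf_not N w (fun h => hg ?_), mul_zero]
      have := N.mul_mem hx h
      simpa using this
    · rw [upf_not N z hx, zero_mul]

theorem up_smul (c : ℂ) (z : ZG N) : up N (c • z) = c • up N z := by
  apply MonoidAlgebra.ext
  ext g
  rw [coeff_up]
  have h1 : (c • up N z).coeff g = c * upf N z g := rfl
  rw [h1]
  by_cases hg : g ∈ N
  · have h2 := upf_mem N (c • z) ⟨g, hg⟩
    have h3 := upf_mem N z ⟨g, hg⟩
    simp only at h2 h3
    rw [h2, h3, zc_smul]
  · rw [upf_not N _ hg, upf_not N _ hg, mul_zero]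

theorem up_resN {a : MonoidAlgebra ℂ G} (ha : InvN N a) (hs : ∀ g, g ∉ N → a.coeff g = 0) :
    up N (resN N a ha) = a := by
  apply MonoidAlgebra.ext
  ext g
  rw [coeff_up]
  by_cases hg : g ∈ N
  · exact upf_mem N (resN N a ha) ⟨g, hg⟩
  · rw [upf_not N _ hg, hs g hg]

theorem evA_up (χ : G → ℂ) (z : ZG N) : evA χ (up N z) = ∑ n : N, zc z n * χ n := by
  rw [evA_eq_sum, sum_N N]
  · refine Finset.sum_congr rfl fun n _ => ?_
    rw [coeff_up, upf_mem]
  · intro g hg
    rw [coeff_up, upf_not N _ hg, zero_mul]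

theorem mul_eB (z : ZG N) (θ : IrrCharacter N) :
    z * eB ({θ} : Set (IrrCharacter N)) = omega θ z • eB ({θ} : Set (IrrCharacter N)) := by
  classical
  apply eq_of_omega
  intro χ
  rw [map_mul, map_smul, omega_eB, smul_eq_mul]
  by_cases h : χ = θ
  · rw [h]
  · rw [if_neg (fun h' => h (Set.mem_singleton_iff.1 h')), mul_zero, mul_zero]

/-- the central idempotent of `θ` in `ℂG` -/
noncomputable def eT (θ : IrrCharacter N) : MonoidAlgebra ℂ G :=
  up N (eB ({θ} : Set (IrrCharacter N)))

theorem mul_eT {a : MonoidAlgebra ℂ G} (ha : InvN N a) (hs : ∀ g, g ∉ N → a.coeff g = 0)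
    (θ : IrrCharacter N) : a * eT N θ = omega θ (resN N a ha) • eT N θ := by
  conv_lhs => rw [← up_resN N ha hs]
  rw [eT, ← up_mul, mul_eB, up_smul]

theorem comm_eT {a : MonoidAlgebra ℂ G} (ha : InvN N a) (θ : IrrCharacter N) :
    a * eT N θ = eT N θ * a :=
  supp_comm N ha (fun _ hg => upf_not N _ hg)

theorem eT_mul_eT (θ : IrrCharacter N) : eT N θ * eT N θ = eT N θ := by
  rw [eT, ← up_mul, eB_mul_eB_self]

theorem evA_eT (χ : G → ℂ) (θ : IrrCharacter N) :
    evA χ (eT N θ) = (θ : N → ℂ) 1 * classInner (fun n : N => χ n) (θ : N → ℂ) := by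
  classical
  letI := Fintype.ofFinite (IrrCharacter N)
  rw [eT, evA_up, classInner, mul_left_comm, Finset.mul_sum, Finset.mul_sum, ]
  refine Finset.sum_congr rfl fun n _ => ?_
  rw [zc_eB, blockCoeff_eq_sum, Finset.sum_eq_single θ]
  · rw [if_pos (Set.mem_singleton _)]
    ring
  · intro ψ _ hψ
    rw [if_neg (fun h => hψ (Set.mem_singleton_iff.1 h))]
  · intro h; exact absurd (Finset.mem_univ _) h

/-- `e_θ` acts as zero on the characters not over `θ`. -/
theorem evA_mul_eT (χ : IrrCharacter G) (θ : IrrCharacter N)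
    (h : classInner (fun n : N => (χ : G → ℂ) n) (θ : N → ℂ) = 0) (a : MonoidAlgebra ℂ G) :
    evA (χ : G → ℂ) (a * eT N θ) = 0 := by
  obtain ⟨χ, n, ρ, hρ, rfl⟩ := χ
  simp only at h ⊢
  have h1 : LinearMap.trace ℂ (Fin n → ℂ) (ρ.asAlgebraHom (eT N θ)) = 0 := by
    rw [trace_asAlgebraHom, evA_eT, h, mul_zero]
  have h2 : IsIdempotentElem (ρ.asAlgebraHom (eT N θ)) := by
    rw [IsIdempotentElem, ← map_mul, eT_mul_eT]
  have h3 : ρ.asAlgebraHom (eT N θ) = 0 := by
    have h4 := LinearMap.IsIdempotentElem.isProj_range _ h2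
    have h5 := LinearMap.IsProj.trace h4
    rw [h1] at h5
    have h6 : Module.finrank ℂ (LinearMap.range (ρ.asAlgebraHom (eT N θ))) = 0 := by
      exact_mod_cast h5.symm
    rw [Submodule.finrank_eq_zero, LinearMap.range_eq_bot] at h6
    exact h6
  rw [← trace_asAlgebraHom, map_mul, h3, mul_zero, map_zero]

end up

section main
variable {G : Type u} [Group G] [Fintype G] (N : Subgroup G) [hN : N.Normal] [Fintype N]
variable {M : Ideal AlgInt}

theorem coeff_one [Fintype (IrrCharacter G)] : ∃ d : IrrCharacter G → ℂ,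
    ∀ a : MonoidAlgebra ℂ G, a.coeff 1 = ∑ χ : IrrCharacter G, d χ * evA (χ : G → ℂ) a := by
  classical
  let δ : G → ℂ := fun g => if g = 1 then 1 else 0
  have hδ : IsClassFunction G δ := by
    intro g h
    show (if h * g * h⁻¹ = 1 then (1 : ℂ) else 0) = if g = 1 then 1 else 0
    have : h * g * h⁻¹ = 1 ↔ g = 1 := by
      rw [mul_inv_eq_one, mul_eq_left]
    simp only [this]
  refine ⟨fun χ => classInner δ (χ : G → ℂ), fun a => ?_⟩
  have h1 : evA δ a = a.coeff 1 := by
    rw [evA_eq_sum, Finset.sum_eq_single 1]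
    · show a.coeff 1 * (if (1 : G) = 1 then (1 : ℂ) else 0) = _
      rw [if_pos rfl, mul_one]
    · intro g _ hg
      show a.coeff g * (if g = 1 then (1 : ℂ) else 0) = _
      rw [if_neg hg, mul_zero]
    · intro h; exact absurd (Finset.mem_univ _) h
  rw [← h1, ← evA_sum_left]
  have h2 := mem_classFun_expand hδ
  have h3 : δ = fun g => ∑ χ : IrrCharacter G, classInner δ (χ : G → ℂ) * (χ : G → ℂ) g := by
    funext g
    conv_lhs => rw [h2]
    rw [Finset.sum_apply]
    rfl
  conv_lhs => rw [h3]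

theorem omega_resN {a : MonoidAlgebra ℂ G} (ha : InvN N a) (θ : IrrCharacter N) :
    omega θ (resN N a ha) = (Nat.card N : ℂ) / (θ : N → ℂ) 1 ^ 2 * (a * eT N θ).coeff 1 := by
  classical
  letI := Fintype.ofFinite (IrrCharacter N)
  have h0 := irr_one_ne_zero θ.2
  have hN0 : (Nat.card N : ℂ) ≠ 0 := by exact_mod_cast (Nat.card_pos (α := N)).ne'
  rw [omega_eq_sum, coeff_mul_eq]
  have h1 : ∑ x : G, a.coeff x * (eT N θ).coeff (x⁻¹ * 1) =
      ∑ n : N, a.coeff n * ((Nat.card N : ℂ)⁻¹ * (θ : N → ℂ) 1 * (θ : N → ℂ) n) := by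
    rw [sum_N N]
    · refine Finset.sum_congr rfl fun n _ => ?_
      congr 1
      have h2 : ((n : G)⁻¹ * 1 : G) = ((n⁻¹ : N) : G) := by simp
      rw [h2, eT, coeff_up, upf_mem, zc_eB, blockCoeff_eq_sum, Finset.sum_eq_single θ]
      · rw [if_pos (Set.mem_singleton _), char_inv (irr_char θ), Complex.conj_conj]
        ring
      · intro ψ _ hψ
        rw [if_neg (fun h => hψ (Set.mem_singleton_iff.1 h))]
      · intro h; exact absurd (Finset.mem_univ _) h
    · intro g hg
      rw [mul_one, eT, coeff_up, upf_not N _ (fun h => hg (by simpa using N.inv_mem h)), mul_zero]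
  rw [h1]
  have h2 : ∀ n : N, zc (resN N a ha) n = a.coeff n := fun n => rfl
  simp_rw [h2]
  rw [Finset.mul_sum, Finset.sum_div]
  refine Finset.sum_congr rfl fun n _ => ?_
  field_simp

/-- homogeneous of degree `x` -/
def Deg (x : G ⧸ N) (a : MonoidAlgebra ℂ G) : Prop := ∀ g, a.coeff g ≠ 0 → (g : G ⧸ N) = x

theorem Deg.mul {x y : G ⧸ N} {a b : MonoidAlgebra ℂ G} (ha : Deg N x a) (hb : Deg N y b) :
    Deg N (x * y) (a * b) := by
  intro g hg
  rw [coeff_mul_eq] at hg
  obtain ⟨s, _, hs⟩ := Finset.exists_ne_zero_of_sum_ne_zero hg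
  have h1 := ha s (left_ne_zero_of_mul hs)
  have h2 := hb _ (right_ne_zero_of_mul hs)
  rw [← h1, ← h2, ← QuotientGroup.mk_mul]
  congr 1
  group

/-- invariant, locally integral, homogeneous -/
structure Good (M : Ideal AlgInt) (x : G ⧸ N) (a : MonoidAlgebra ℂ G) : Prop where
  inv : InvN N a
  loc : LocA M a
  deg : Deg N x a

variable {N}

theorem Good.mul [M.IsPrime] {x y : G ⧸ N} {a b : MonoidAlgebra ℂ G} (ha : Good N M x a)
    (hb : Good N M y b) : Good N M (x * y) (a * b) :=
  ⟨ha.inv.mul hb.inv, ha.loc.mul hb.loc, ha.deg.mul N hb.deg⟩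

theorem coeff_one_ite [DecidableEq G] (g : G) :
    (1 : MonoidAlgebra ℂ G).coeff g = if g = 1 then 1 else 0 := by
  rw [MonoidAlgebra.one_def, MonoidAlgebra.coeff_single, Finsupp.single_apply]
  simp only [eq_comm]

theorem good_one [M.IsPrime] : Good N M 1 (1 : MonoidAlgebra ℂ G) := by
  classical
  refine ⟨?_, ?_, ?_⟩
  · intro n _ g
    rw [coeff_one_ite, coeff_one_ite]
    have : n * g * n⁻¹ = 1 ↔ g = 1 := by
      rw [mul_inv_eq_one, mul_eq_left]
    simp only [this]
  · intro g
    rw [coeff_one_ite]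
    split_ifs
    · exact locR_one
    · exact locR_zero
  · intro g hg
    rw [coeff_one_ite] at hg
    by_cases h : g = 1
    · rw [h]; rfl
    · rw [if_neg h] at hg; exact absurd rfl hg

theorem good_list [M.IsPrime] {c : G ⧸ N → MonoidAlgebra ℂ G} (hc : ∀ x, Good N M x (c x))
    (l : List (G ⧸ N)) : Good N M l.prod (l.map c).prod := by
  induction l with
  | nil => simpa using good_one
  | cons a l ih =>
    rw [List.prod_cons, List.map_cons, List.prod_cons]
    exact (hc a).mul ih

theorem good_supp {a : MonoidAlgebra ℂ G} (ha : Good N M 1 a) : ∀ g, g ∉ N → a.coeff g = 0 := by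
  intro g hg
  by_contra h
  exact hg ((QuotientGroup.eq_one_iff g).1 (ha.deg g h))

variable (N M) in
/-- `u e_θ = a e_θ` with `a` in the local ideal -/
def PP (θ : IrrCharacter N) (u : MonoidAlgebra ℂ G) : Prop :=
  ∃ a, LocI M a ∧ u * eT N θ = a * eT N θ

theorem LocI_mul_right [M.IsPrime] {a b : MonoidAlgebra ℂ G} (ha : LocI M a) (hb : LocA M b) :
    LocI M (a * b) := by
  intro g
  rw [coeff_mul_eq]
  exact locI_sum fun x _ => locI_mul_right (ha x) (hb _)

/-- pigeonhole -/
theorem exists_split {Q : Type*} [Group Q] [Fintype Q] (l : List Q) (hl : l.length = Fintype.card Q) :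
    ∃ (l₁ : List Q) (x : Q) (t l₂ : List Q), l = l₁ ++ (x :: t) ++ l₂ ∧ t.prod = x⁻¹ := by
  have h1 : ¬ Function.Injective (fun i : Fin (l.length + 1) => (l.take i).prod) := by
    intro h
    have h2 := Fintype.card_le_of_injective _ h
    rw [Fintype.card_fin] at h2
    omega
  rw [Function.Injective] at h1
  push Not at h1
  obtain ⟨i, j, hij, hne⟩ := h1
  wlog hlt : i < j generalizing i j
  · exact this j i hij.symm hne.symm (lt_of_le_of_ne (not_lt.1 hlt) hne.symm)
  have hlt' : (i : ℕ) < (j : ℕ) := hlt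
  have hj : (j : ℕ) ≤ l.length := by omega
  set mid := (l.take j).drop i with hmid
  have h3 : l.take j = l.take i ++ mid := by
    conv_lhs => rw [← List.take_append_drop i (l.take j)]
    rw [List.take_take, min_eq_left hlt'.le]
  have h4 : mid.length = j - i := by
    rw [hmid, List.length_drop, List.length_take, min_eq_left hj]
  have h5 : mid.prod = 1 := by
    rw [h3, List.prod_append] at hij
    exact (mul_eq_left.1 hij.symm)
  clear_value mid
  cases mid with
  | nil => rw [List.length_nil] at h4; omega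
  | cons x t =>
    refine ⟨l.take i, x, t, l.drop j, ?_, ?_⟩
    · rw [← h3, List.take_append_drop]
    · rw [List.prod_cons] at h5
      exact eq_inv_of_mul_eq_one_right h5

theorem word_PP [M.IsPrime] {c : G ⧸ N → MonoidAlgebra ℂ G} (hc : ∀ x, Good N M x (c x))
    (θ : IrrCharacter N)
    (hJ : ∀ x, ∀ a, (ha : Good N M x⁻¹ a) →
      MemLocalIdeal M (omega θ (resN N (c x * a) ((hc x).inv.mul ha.inv))))
    [Fintype (G ⧸ N)] (l : List (G ⧸ N)) (hl : l.length = Fintype.card (G ⧸ N)) :
    PP N M θ (l.map c).prod := by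
  obtain ⟨l₁, x, t, l₂, rfl, ht⟩ := exists_split l hl
  set A := (l₁.map c).prod with hA
  set T := (t.map c).prod with hT
  set C := (l₂.map c).prod with hC
  have h1 : ((l₁ ++ (x :: t) ++ l₂).map c).prod = A * (c x * T) * C := by
    rw [List.map_append, List.map_append, List.prod_append, List.prod_append, List.map_cons,
      List.prod_cons]
  have gA := good_list hc l₁
  have gT := good_list hc t
  rw [ht] at gT
  have gC := good_list hc l₂
  have gxT : Good N M 1 (c x * T) := by
    have := (hc x).mul gT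
    rwa [mul_inv_cancel] at this
  set ω := omega θ (resN N (c x * T) ((hc x).inv.mul gT.inv)) with hω
  refine ⟨ω • (A * C), ?_, ?_⟩
  · intro g
    have h2 : (ω • (A * C)).coeff g = ω * (A * C).coeff g := rfl
    rw [h2]
    exact locI_mul_right (hJ x T gT) (gA.loc.mul gC.loc g)
  · rw [h1, mul_assoc, comm_eT N gC.inv, ← mul_assoc, mul_assoc A, mul_eT N _ (good_supp gxT),
      mul_smul_comm, smul_mul_assoc, mul_assoc, ← comm_eT N gC.inv, ← mul_assoc, smul_mul_assoc]

theorem pow_mem_closure {Q A : Type*} [Fintype Q] [Semiring A] (c : Q → A) (k : ℕ) :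
    (∑ x, c x) ^ k ∈ AddSubmonoid.closure {u : A | ∃ l : List Q, l.length = k ∧ u = (l.map c).prod} := by
  induction k with
  | zero =>
    rw [pow_zero]
    exact AddSubmonoid.subset_closure ⟨[], rfl, by simp⟩
  | succ k ih =>
    rw [pow_succ', Finset.sum_mul]
    refine AddSubmonoid.sum_mem _ fun x _ => ?_
    generalize (∑ x, c x) ^ k = y at ih
    induction ih using AddSubmonoid.closure_induction with
    | mem u hu =>
      obtain ⟨l, hl, rfl⟩ := hu
      exact AddSubmonoid.subset_closure ⟨x :: l, by simp [hl], by simp⟩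
    | zero => rw [mul_zero]; exact AddSubmonoid.zero_mem _
    | add a b _ _ ha hb => rw [mul_add]; exact AddSubmonoid.add_mem _ ha hb

theorem PP_add [M.IsPrime] {θ : IrrCharacter N} {u v : MonoidAlgebra ℂ G} (hu : PP N M θ u)
    (hv : PP N M θ v) : PP N M θ (u + v) := by
  obtain ⟨a, ha, ha'⟩ := hu
  obtain ⟨b, hb, hb'⟩ := hv
  refine ⟨a + b, fun g => ?_, by rw [add_mul, add_mul, ha', hb']⟩
  have : (a + b).coeff g = a.coeff g + b.coeff g := rfl
  rw [this]
  exact locI_add (ha g) (hb g)

theorem PP_zero [M.IsPrime] {θ : IrrCharacter N} : PP N M θ (0 : MonoidAlgebra ℂ G) :=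
  ⟨0, fun _ => locI_zero, rfl⟩

open Classical in
variable (N) in
/-- components -/
noncomputable def comp (a : MonoidAlgebra ℂ G) (x : G ⧸ N) : MonoidAlgebra ℂ G :=
  ga (fun g => if (g : G ⧸ N) = x then a.coeff g else 0)

theorem coeff_comp [DecidableEq (G ⧸ N)] (a : MonoidAlgebra ℂ G) (x : G ⧸ N) (g : G) :
    (comp N a x).coeff g = if (g : G ⧸ N) = x then a.coeff g else 0 := by
  rw [comp, coeff_ga]
  congr

theorem sum_comp [Fintype (G ⧸ N)] (a : MonoidAlgebra ℂ G) : ∑ x, comp N a x = a := by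
  classical
  apply MonoidAlgebra.ext
  ext g
  have h1 : (∑ x, comp N a x).coeff g = ∑ x, (comp N a x).coeff g := by
    have : ∀ s : Finset (G ⧸ N), (∑ x ∈ s, comp N a x).coeff g = ∑ x ∈ s, (comp N a x).coeff g := by
      intro s
      induction s using Finset.induction_on with
      | empty => rfl
      | insert b s hb ih => rw [Finset.sum_insert hb, Finset.sum_insert hb, ← ih]; rfl
    exact this _
  rw [h1]
  simp_rw [coeff_comp]
  rw [Finset.sum_ite_eq, if_pos (Finset.mem_univ _)]

theorem good_comp [M.IsPrime] {a : MonoidAlgebra ℂ G} (hi : InvN N a) (hl : LocA M a) (x : G ⧸ N) :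
    Good N M x (comp N a x) := by
  classical
  refine ⟨?_, ?_, ?_⟩
  · intro n hn g
    rw [coeff_comp, coeff_comp, hi n hn g]
    have h1 : ((n * g * n⁻¹ : G) : G ⧸ N) = (g : G ⧸ N) := by
      rw [QuotientGroup.mk_mul, QuotientGroup.mk_mul, QuotientGroup.mk_inv,
        (QuotientGroup.eq_one_iff n).2 hn]
      simp
    rw [h1]
  · intro g
    rw [coeff_comp]
    split_ifs
    · exact hl g
    · exact locR_zero
  · intro g hg
    rw [coeff_comp] at hg
    by_contra h
    rw [if_neg h] at hg
    exact hg rfl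

theorem coeff_comp_mul {a b : MonoidAlgebra ℂ G} {x : G ⧸ N} (hb : Deg N x⁻¹ b) {g : G}
    (hg : g ∈ N) : (comp N a x * b).coeff g = (a * b).coeff g := by
  classical
  rw [coeff_mul_eq, coeff_mul_eq]
  refine Finset.sum_congr rfl fun s _ => ?_
  rw [coeff_comp]
  by_cases hs : (s : G ⧸ N) = x
  · rw [if_pos hs]
  · rw [if_neg hs, zero_mul]
    by_cases h0 : b.coeff (s⁻¹ * g) = 0
    · rw [h0, mul_zero]
    · exfalso
      apply hs
      have h1 := hb _ h0
      rw [QuotientGroup.mk_mul, (QuotientGroup.eq_one_iff g).2 hg, mul_one, QuotientGroup.mk_inv,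
        inv_inj] at h1
      exact h1

theorem main (p : ℕ) (hM : IsPModular p M) {B : Set (IrrCharacter G)} (hB : IsPBlock M B)
    {θ θ' : IrrCharacter N} (hs : SameBlock M (θ : N → ℂ) (θ' : N → ℂ))
    (hθ : ∀ χ ∈ B, classInner (fun n : N => (χ : G → ℂ) n) (θ : N → ℂ) = 0) :
    ∀ χ ∈ B, classInner (fun n : N => (χ : G → ℂ) n) (θ' : N → ℂ) = 0 := by
  classical
  haveI := pm_isPrime hM
  letI := Fintype.ofFinite (IrrCharacter G)
  letI := Fintype.ofFinite (G ⧸ N)
  set e := toA (eB B) with he
  have hei : InvN N e := invN_central _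
  have hel : LocA M e := eB_mem hB
  have hc := good_comp hei hel
  have hJ : ∀ x, ∀ a, (ha : Good N M x⁻¹ a) →
      MemLocalIdeal M (omega θ' (resN N (comp N e x * a) ((hc x).inv.mul ha.inv))) := by
    intro x a ha
    have h1 : omega θ (resN N (comp N e x * a) ((hc x).inv.mul ha.inv)) = 0 := by
      have h2 : resN N (comp N e x * a) ((hc x).inv.mul ha.inv) =
          resN N (e * a) (hei.mul ha.inv) := by
        apply zG_ext
        intro n
        rw [zc_resN, zc_resN, coeff_comp_mul ha.deg n.2]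
      obtain ⟨d, hd⟩ := coeff_one (G := G)
      rw [h2, omega_resN, hd, mul_eq_zero]
      right
      refine Finset.sum_eq_zero fun χ _ => ?_
      rw [mul_assoc, evA_eB_mul]
      split_ifs with hχ
      · rw [evA_mul_eT N χ θ (hθ χ hχ), mul_zero]
      · rw [mul_zero]
    have h3 := sameBlock_iff.1 hs _ (resN_mem ((hc x).inv.mul ha.inv) ((hc x).loc.mul ha.loc))
    rw [h1, zero_sub] at h3
    simpa using locI_neg h3
  have h4 : ∀ u ∈ AddSubmonoid.closure {u : MonoidAlgebra ℂ G | ∃ l : List (G ⧸ N),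
      l.length = Fintype.card (G ⧸ N) ∧ u = (l.map (comp N e)).prod}, PP N M θ' u := by
    intro u hu
    induction hu using AddSubmonoid.closure_induction with
    | mem u hu =>
      obtain ⟨l, hl, rfl⟩ := hu
      exact word_PP hc θ' hJ l hl
    | zero => exact PP_zero
    | add a b _ _ ha hb => exact PP_add ha hb
  have h5 := h4 _ (pow_mem_closure (comp N e) _)
  rw [sum_comp] at h5
  have hee : e * e = e := by rw [he, ← map_mul, eB_mul_eB_self]
  have hpow : ∀ k : ℕ, k ≠ 0 → e ^ k = e := by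
    intro k hk
    induction k with
    | zero => exact absurd rfl hk
    | succ k ih =>
      rcases Nat.eq_zero_or_pos k with h | h
      · rw [h, zero_add, pow_one]
      · rw [pow_succ, ih h.ne', hee]
  rw [hpow _ Fintype.card_ne_zero] at h5
  obtain ⟨a, ha, h6⟩ := h5
  have hcomm : ∀ y : MonoidAlgebra ℂ G, e * y = y * e := fun y => toA_comm _ y
  have h7 : e * eT N θ' = a * (e * eT N θ') := by
    conv_lhs => rw [← hee, mul_assoc, h6]
    rw [← mul_assoc, hcomm a, mul_assoc]
  have h8 := eq_zero_of_eq_mul ha h7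
  intro χ hχ
  have h9 : evA (χ : G → ℂ) (e * eT N θ') = evA (χ : G → ℂ) (eT N θ') := by
    rw [he, evA_eB_mul, if_pos hχ]
  rw [h8, map_zero, evA_eT] at h9
  exact (mul_eq_zero.1 h9.symm).resolve_left (irr_one_ne_zero θ'.2)

end main

end H76.BlkCov
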